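import Mathlib
import Cfsg.Agent.Helper27.FusBasic

set_option autoImplicit false

namespace Cfsg.Agent.Helper27

/-- a `p`-group of permutations of fewer than `p ^ 2` points is commutative -/
theorem comm_of_pgroup_small {α : Type*} [Fintype α] {p : ℕ} [Fact p.Prime]
    (hα : Fintype.card α < p ^ 2) (P : Subgroup (Equiv.Perm α)) (hP : IsPGroup p P)
    (a b : Equiv.Perm α) (ha : a ∈ P) (hb : b ∈ P) : a * b = b * a := by
  have hp : p.Prime := Fact.out
  ext x
  obtain ⟨k, hk⟩ := hP.card_orbit x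
  have hk1 : p ^ k < p ^ 2 := by
    rw [← hk]
    calc Nat.card (MulAction.orbit P x) ≤ Nat.card α :=
          Nat.card_le_card_of_injective Subtype.val Subtype.val_injective
      _ = Fintype.card α := Nat.card_eq_fintype_card
      _ < p ^ 2 := hα
  have hk2 : k < 2 := (Nat.pow_lt_pow_iff_right hp.one_lt).mp hk1
  have hle : p ^ k ≤ p := by
    interval_cases k
    · simpa using hp.one_lt.le
    · simp
  let f : P →* Equiv.Perm (MulAction.orbit P x) := MulAction.toPermHom P (MulAction.orbit P x)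
  have hKp : IsPGroup p f.range := hP.of_surjective f.rangeRestrict f.rangeRestrict_surjective
  obtain ⟨j, hj⟩ := IsPGroup.iff_card.mp hKp
  have hdvd : p ^ j ∣ p.factorial := by
    rw [← hj]
    have h1 : Nat.card f.range ∣ Nat.card (Equiv.Perm (MulAction.orbit P x)) :=
      Subgroup.card_subgroup_dvd_card _
    rw [Nat.card_perm, hk] at h1
    exact h1.trans (Nat.factorial_dvd_factorial hle)
  have hj1 : j ≤ 1 := by
    by_contra hcon
    rw [not_le] at hcon
    have h2 : p ^ 2 ∣ p.factorial := (pow_dvd_pow p hcon).trans hdvd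
    have h3 : p.factorial = p * (p - 1).factorial := (Nat.mul_factorial_pred hp.ne_zero).symm
    rw [h3, pow_two] at h2
    have h4 : p ∣ (p - 1).factorial := (Nat.mul_dvd_mul_iff_left hp.pos).mp h2
    have h5 := (hp.dvd_factorial).mp h4
    have h6 := hp.pos
    omega
  have hcomm : ∀ u v : f.range, u * v = v * u := by
    interval_cases j
    · intro u v
      have : Subsingleton f.range := (Nat.card_eq_one_iff_unique.mp (by simpa using hj)).1
      exact Subsingleton.elim _ _
    · intro u v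
      have hc : IsCyclic f.range := isCyclic_of_prime_card (p := p) (by simpa using hj)
      exact (IsCyclic.commGroup).mul_comm u v
  have h1 := hcomm ⟨f ⟨a, ha⟩, ⟨_, rfl⟩⟩ ⟨f ⟨b, hb⟩, ⟨_, rfl⟩⟩
  have h2 : f ⟨a, ha⟩ * f ⟨b, hb⟩ = f ⟨b, hb⟩ * f ⟨a, ha⟩ := congrArg Subtype.val h1
  have h3 := congrArg (fun g : Equiv.Perm (MulAction.orbit P x) =>
    ((g ⟨x, MulAction.mem_orbit_self x⟩ : MulAction.orbit P x) : α)) h2
  exact h3

/-- the Heisenberg permutations of `ZMod p × ZMod p` -/
def heis (p : ℕ) (a b c : ZMod p) : Equiv.Perm (ZMod p × ZMod p) where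
  toFun v := (v.1 + a, v.2 + c * v.1 + b)
  invFun v := (v.1 - a, v.2 - c * (v.1 - a) - b)
  left_inv v := by
    ext
    · simp
    · simp only [add_sub_cancel_right]
      ring
  right_inv v := by
    ext
    · simp
    · simp only
      ring

theorem heis_apply (p : ℕ) (a b c : ZMod p) (v : ZMod p × ZMod p) :
    heis p a b c v = (v.1 + a, v.2 + c * v.1 + b) := rfl

theorem heis_mul (p : ℕ) (a b c a' b' c' : ZMod p) :
    heis p a' b' c' * heis p a b c = heis p (a + a') (b + b' + c' * a) (c + c') := by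
  ext v
  · simp only [Equiv.Perm.mul_apply, heis_apply]
    ring
  · simp only [Equiv.Perm.mul_apply, heis_apply]
    ring

theorem heis_zero (p : ℕ) : heis p 0 0 0 = 1 := by
  ext v
  · simp [heis_apply]
  · simp [heis_apply]

/-- the Heisenberg group as a group of permutations of `ZMod p × ZMod p` -/
def Heis (p : ℕ) : Subgroup (Equiv.Perm (ZMod p × ZMod p)) where
  carrier := Set.range (fun t : ZMod p × ZMod p × ZMod p => heis p t.1 t.2.1 t.2.2)
  mul_mem' := by
    rintro _ _ ⟨t, rfl⟩ ⟨u, rfl⟩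
    exact ⟨(u.1 + t.1, u.2.1 + t.2.1 + t.2.2 * u.1, u.2.2 + t.2.2), (heis_mul p _ _ _ _ _ _).symm⟩
  one_mem' := ⟨(0, 0, 0), heis_zero p⟩
  inv_mem' := by
    rintro _ ⟨t, rfl⟩
    refine ⟨(-t.1, -t.2.1 + t.2.2 * t.1, -t.2.2), ?_⟩
    apply eq_inv_of_mul_eq_one_left
    show heis p _ _ _ * heis p _ _ _ = 1
    rw [heis_mul, ← heis_zero p]
    congr 1 <;> ring

theorem heis_mem (p : ℕ) (a b c : ZMod p) : heis p a b c ∈ Heis p := ⟨(a, b, c), rfl⟩

theorem isPGroup_Heis (p : ℕ) [Fact p.Prime] : IsPGroup p (Heis p) := by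
  have hbij : Function.Bijective (fun t : ZMod p × ZMod p × ZMod p =>
      (⟨heis p t.1 t.2.1 t.2.2, ⟨t, rfl⟩⟩ : Heis p)) := by
    constructor
    · intro t u h
      have h' : heis p t.1 t.2.1 t.2.2 = heis p u.1 u.2.1 u.2.2 := congrArg Subtype.val h
      have h0 := congrArg (fun g : Equiv.Perm (ZMod p × ZMod p) => g (0, 0)) h'
      have h1 := congrArg (fun g : Equiv.Perm (ZMod p × ZMod p) => g (1, 0)) h'
      simp only [heis_apply, zero_add, mul_zero, mul_one, Prod.mk.injEq] at h0 h1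
      obtain ⟨ha, hb⟩ := h0
      obtain ⟨-, hc⟩ := h1
      rw [hb] at hc
      have hc' := add_right_cancel hc
      exact Prod.ext ha (Prod.ext hb hc')
    · rintro ⟨_, t, rfl⟩
      exact ⟨t, rfl⟩
  have hcard : Nat.card (Heis p) = p ^ 3 := by
    rw [← Nat.card_eq_of_bijective _ hbij, Nat.card_prod, Nat.card_prod, Nat.card_zmod]
    ring
  exact IsPGroup.of_card hcard

theorem heis_not_comm (p : ℕ) [Fact p.Prime] :
    heis p 1 0 0 * heis p 0 0 1 ≠ heis p 0 0 1 * heis p 1 0 0 := by
  intro h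
  have h0 := congrArg (fun g : Equiv.Perm (ZMod p × ZMod p) => (g (0, 0)).2) h
  simp [heis_apply] at h0

theorem sign_eq_one_of_pgroup {p : ℕ} [Fact p.Prime] (hp2 : p ≠ 2) {H : Type*} [Group H]
    (hH : IsPGroup p H) (g : H →* ℤˣ) (h : H) : g h = 1 := by
  obtain ⟨k, hk⟩ := hH h
  have h1 : (g h) ^ (p ^ k) = 1 := by rw [← map_pow, hk, map_one]
  rcases Int.units_eq_one_or (g h) with h2 | h2
  · exact h2
  · rw [h2] at h1
    have hodd : Odd (p ^ k) := (Nat.Prime.odd_of_ne_two Fact.out hp2).pow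
    rw [hodd.neg_one_pow] at h1
    exact absurd h1 (by decide)

/-- correction of the sign of a permutation by an extra pair of points -/
def signFix (X : Type*) [DecidableEq X] [Fintype X] : Equiv.Perm X →* Equiv.Perm (X ⊕ ℤˣ) :=
  (Equiv.Perm.sumCongrHom X ℤˣ).comp
    ((MonoidHom.id _).prod ((MulAction.toPermHom ℤˣ ℤˣ).comp Equiv.Perm.sign))

theorem signFix_inl (X : Type*) [DecidableEq X] [Fintype X] (g : Equiv.Perm X) (x : X) :
    signFix X g (Sum.inl x) = Sum.inl (g x) := rfl

theorem signFix_injective (X : Type*) [DecidableEq X] [Fintype X] :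
    Function.Injective (signFix X) := by
  intro g h hgh
  ext x
  have h1 := congrArg (fun u : Equiv.Perm (X ⊕ ℤˣ) => u (Sum.inl x)) hgh
  simp only [signFix_inl] at h1
  exact Sum.inl_injective h1

theorem sign_signFix (X : Type*) [DecidableEq X] [Fintype X] (g : Equiv.Perm X) :
    Equiv.Perm.sign (signFix X g) = 1 := by
  have h : signFix X g =
      Equiv.Perm.sumCongr g (MulAction.toPerm (Equiv.Perm.sign g) : Equiv.Perm ℤˣ) := rfl
  rw [h, Equiv.Perm.sign_sumCongr]
  have key : ∀ u : ℤˣ, Equiv.Perm.sign (MulAction.toPerm u : Equiv.Perm ℤˣ) = u := by decide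
  rw [key]
  exact Int.units_mul_self _

/-- if a Sylow `p`-subgroup of the alternating group is commutative, then so is the image of every homomorphism from a
`p`-group to the even permutations -/
theorem comm_of_hom {n p : ℕ} [Fact p.Prime] (S : Sylow p (alternatingGroup (Fin n)))
    (hS : IsMulCommutative S) {H : Type*} [Group H] (hH : IsPGroup p H)
    (f : H →* Equiv.Perm (Fin n)) (hf : ∀ h, Equiv.Perm.sign (f h) = 1) (a b : H) :
    f a * f b = f b * f a := by
  let f' : H →* alternatingGroup (Fin n) :=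
    f.codRestrict _ (fun h => Equiv.Perm.mem_alternatingGroup.mpr (hf h))
  have hK : IsPGroup p f'.range := hH.of_surjective f'.rangeRestrict f'.rangeRestrict_surjective
  obtain ⟨g, hg⟩ := sylow_conj S f'.range hK
  have ha := hg (f' a) ⟨a, rfl⟩
  have hb := hg (f' b) ⟨b, rfl⟩
  have hc : (⟨_, ha⟩ : S) * ⟨_, hb⟩ = ⟨_, hb⟩ * ⟨_, ha⟩ := hS.is_comm.comm _ _
  have hc' : (g * f' a * g⁻¹) * (g * f' b * g⁻¹) = (g * f' b * g⁻¹) * (g * f' a * g⁻¹) :=
    congrArg Subtype.val hc
  have hd : f' a * f' b = f' b * f' a := by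
    have e1 : (g * f' a * g⁻¹) * (g * f' b * g⁻¹) = g * (f' a * f' b) * g⁻¹ := by group
    have e2 : (g * f' b * g⁻¹) * (g * f' a * g⁻¹) = g * (f' b * f' a) * g⁻¹ := by group
    rw [e1, e2] at hc'
    exact mul_left_cancel (mul_right_cancel hc')
  exact congrArg Subtype.val hd

end Cfsg.Agent.Helper27
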