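import Mathlib

set_option autoImplicit false

namespace Cfsg.Agent.Helper27

/-- a two-variable map into an abelian group of exponent prime to the index of `R`, satisfying the
twisted cocycle identity and constant along the left cosets of `R` in its second variable, is a
twisted coboundary -/
theorem coboundary_of_coprime {G A : Type*} [Group G] [Finite G] [CommGroup A]
    (R : Subgroup G) (κ : G → A →* A) (f : G → G → A)
    (hc : ∀ g h k, f g h * f (g * h) k = κ g (f h k) * f g (h * k))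
    (hr : ∀ g h r, r ∈ R → f g (h * r) = f g h)
    (N : ℕ) (hN : ∀ a : A, a ^ N = 1) (hcop : Nat.Coprime R.index N) :
    ∃ d : G → A, (∀ g h, f g h = κ g (d h) * d g * (d (g * h))⁻¹) ∧
      ∀ g, (∀ h, f g h = 1) → d g = 1 := by
  classical
  haveI : Fintype (G ⧸ R) := Fintype.ofFinite _
  have hmidx : R.index = Fintype.card (G ⧸ R) := by
    rw [Subgroup.index, Nat.card_eq_fintype_card]
  have hcos : ∀ g x y, (QuotientGroup.mk x : G ⧸ R) = QuotientGroup.mk y → f g x = f g y := by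
    intro g x y hxy
    have h1 : x⁻¹ * y ∈ R := QuotientGroup.eq.mp hxy
    have h2 := hr g x _ h1
    rw [mul_inv_cancel_left] at h2
    exact h2.symm
  have he : ∀ g h, f g h ^ Fintype.card (G ⧸ R) * (∏ c : G ⧸ R, f (g * h) (Quotient.out c)) =
      κ g (∏ c : G ⧸ R, f h (Quotient.out c)) * ∏ c : G ⧸ R, f g (Quotient.out c) := by
    intro g h
    have h2 : ∏ c : G ⧸ R, (f g h * f (g * h) (Quotient.out c)) =
        ∏ c : G ⧸ R, (κ g (f h (Quotient.out c)) * f g (h * Quotient.out c)) :=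
      Finset.prod_congr rfl (fun c _ => hc g h _)
    rw [Finset.prod_mul_distrib, Finset.prod_mul_distrib, Finset.prod_const, Finset.card_univ,
      ← map_prod] at h2
    have h3 : ∏ c : G ⧸ R, f g (h * Quotient.out c) = ∏ c : G ⧸ R, f g (Quotient.out c) := by
      rw [← Equiv.prod_comp (MulAction.toPerm h : Equiv.Perm (G ⧸ R))
        (fun c => f g (Quotient.out c))]
      refine Finset.prod_congr rfl (fun c _ => hcos g _ _ ?_)
      show (QuotientGroup.mk (h * Quotient.out c) : G ⧸ R) =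
        QuotientGroup.mk (Quotient.out (h • c))
      rw [QuotientGroup.out_eq']
      conv_rhs => rw [← QuotientGroup.out_eq' c]
      rfl
    rw [h3] at h2
    exact h2
  obtain ⟨a, ha⟩ : ∃ a : ℤ, ∀ z : A, (z ^ Fintype.card (G ⧸ R)) ^ a = z := by
    refine ⟨Nat.gcdA (Fintype.card (G ⧸ R)) N, fun z => ?_⟩
    have hg : (Nat.gcd (Fintype.card (G ⧸ R)) N : ℤ) =
        (Fintype.card (G ⧸ R) : ℤ) * Nat.gcdA (Fintype.card (G ⧸ R)) N +
          N * Nat.gcdB (Fintype.card (G ⧸ R)) N := Nat.gcd_eq_gcd_ab _ _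
    have h1 : Nat.gcd (Fintype.card (G ⧸ R)) N = 1 := by
      rw [← hmidx]; exact hcop
    rw [h1] at hg
    have h2 : (Fintype.card (G ⧸ R) : ℤ) * Nat.gcdA (Fintype.card (G ⧸ R)) N =
        1 - N * Nat.gcdB (Fintype.card (G ⧸ R)) N := by
      push_cast at hg; linarith
    rw [← zpow_natCast, ← zpow_mul, h2, zpow_sub, zpow_one, zpow_mul, zpow_natCast, hN, one_zpow,
      inv_one, mul_one]
  refine ⟨fun g => (∏ c : G ⧸ R, f g (Quotient.out c)) ^ a, fun g h => ?_, fun g hg => ?_⟩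
  · have h1 := he g h
    have h2 : f g h ^ Fintype.card (G ⧸ R) =
        κ g (∏ c : G ⧸ R, f h (Quotient.out c)) * (∏ c : G ⧸ R, f g (Quotient.out c)) *
          (∏ c : G ⧸ R, f (g * h) (Quotient.out c))⁻¹ := by
      rw [← h1, mul_inv_cancel_right]
    have h3 := ha (f g h)
    rw [h2, mul_zpow, mul_zpow, inv_zpow, ← map_zpow] at h3
    exact h3.symm
  · show (∏ c : G ⧸ R, f g (Quotient.out c)) ^ a = 1
    rw [Finset.prod_eq_one (fun c _ => hg _), one_zpow]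

/-- averaging: a subgroup `H` of `G₁ × G₂` projecting onto `G₁` in a way compatible with the two
maps of `S₀`, whose part over `1` is abelian of exponent prime to the index of the image of `S₀`,
contains the graph of a homomorphism `G₁ → G₂` carrying `ι₁` to `ι₂` -/
theorem exists_hom_of_compat {S₀ G₁ G₂ : Type*} [Group S₀] [Group G₁] [Group G₂] [Finite G₁]
    (ι₁ : S₀ →* G₁) (ι₂ : S₀ →* G₂) (hι₁ : Function.Injective ι₁)
    (H : Subgroup (G₁ × G₂))
    (hS : ∀ s, (ι₁ s, ι₂ s) ∈ H)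
    (hex : ∀ t : G₁, ∃ y : G₂, (t, y) ∈ H ∧
      ∀ s s' : S₀, ι₁ s * t = t * ι₁ s' → ι₂ s * y = y * ι₂ s')
    (hZab : ∀ x y : G₂, ((1 : G₁), x) ∈ H → ((1 : G₁), y) ∈ H → x * y = y * x)
    (N : ℕ) (hZexp : ∀ x : G₂, ((1 : G₁), x) ∈ H → x ^ N = 1)
    (hcop : Nat.Coprime ι₁.range.index N) :
    ∃ φ : G₁ →* G₂, (∀ g, (g, φ g) ∈ H) ∧ ∀ s, φ (ι₁ s) = ι₂ s := by
  classical
  obtain ⟨A, instA, j, hjinj, hj⟩ : ∃ (A : Type _) (_ : CommGroup A) (j : A →* G₂),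
      Function.Injective j ∧ ∀ x : G₂, ((1 : G₁), x) ∈ H ↔ x ∈ j.range := by
    refine ⟨↥(H.comap (MonoidHom.inr G₁ G₂)),
      { (inferInstance : Group ↥(H.comap (MonoidHom.inr G₁ G₂))) with
        mul_comm := fun a b => Subtype.ext (hZab a b a.2 b.2) },
      (H.comap (MonoidHom.inr G₁ G₂)).subtype, Subtype.coe_injective, fun x => ?_⟩
    constructor
    · intro hx
      exact ⟨⟨x, hx⟩, rfl⟩
    · rintro ⟨z, rfl⟩
      exact z.2
  have hex2 : ∀ t : G₁, ∃ y : G₂, (t, y) ∈ H ∧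
      (∀ s s' : S₀, ι₁ s * t = t * ι₁ s' → ι₂ s * y = y * ι₂ s') ∧
      (∀ c, t = ι₁ c → y = ι₂ c) := by
    intro t
    by_cases ht : ∃ c, t = ι₁ c
    · obtain ⟨c, rfl⟩ := ht
      refine ⟨ι₂ c, hS c, fun s s' h => ?_, fun c' h => ?_⟩
      · rw [← map_mul, ← map_mul] at h
        rw [← map_mul, ← map_mul, hι₁ h]
      · rw [hι₁ h]
    · obtain ⟨y, h1, h2⟩ := hex t
      exact ⟨y, h1, h2, fun c h => absurd ⟨c, h⟩ ht⟩
  choose y hyH hycomp hyspec using hex2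
  let sd : Setoid G₁ :=
    { r := fun g g' => ∃ a b : S₀, g' = ι₁ a * g * ι₁ b
      iseqv :=
        { refl := fun g => ⟨1, 1, by simp⟩
          symm := by
            rintro g g' ⟨a, b, rfl⟩
            exact ⟨a⁻¹, b⁻¹, by simp [mul_assoc]⟩
          trans := by
            rintro g g' g'' ⟨a, b, rfl⟩ ⟨c, d, rfl⟩
            exact ⟨c * a, b * d, by simp [mul_assoc]⟩ } }
  let rep : G₁ → G₁ := fun g => Quotient.out (Quotient.mk sd g)
  have hrep : ∀ g, ∃ a b : S₀, g = ι₁ a * rep g * ι₁ b := fun g => Quotient.mk_out (s := sd) g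
  have hrep_eq : ∀ g a b, rep (ι₁ a * g * ι₁ b) = rep g := by
    intro g a b
    have h1 : Quotient.mk sd (ι₁ a * g * ι₁ b) = Quotient.mk sd g :=
      Quotient.sound (s := sd) (show sd.r _ _ from ⟨a⁻¹, b⁻¹, by simp [mul_assoc]⟩)
    show Quotient.out (Quotient.mk sd (ι₁ a * g * ι₁ b)) = Quotient.out (Quotient.mk sd g)
    rw [h1]
  choose ca cb hcab using hrep
  let τ : G₁ → G₂ := fun g => ι₂ (ca g) * y (rep g) * ι₂ (cb g)
  have hτ_eq : ∀ g a b, g = ι₁ a * rep g * ι₁ b → τ g = ι₂ a * y (rep g) * ι₂ b := by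
    intro g a b hg
    have h2 : ι₁ (ca g) * rep g * ι₁ (cb g) = ι₁ a * rep g * ι₁ b := (hcab g).symm.trans hg
    have h1 : ι₁ (a⁻¹ * ca g) * rep g = rep g * ι₁ (b * (cb g)⁻¹) := by
      rw [map_mul, map_mul, map_inv, map_inv]
      calc (ι₁ a)⁻¹ * ι₁ (ca g) * rep g
          = (ι₁ a)⁻¹ * (ι₁ (ca g) * rep g * ι₁ (cb g)) * (ι₁ (cb g))⁻¹ := by group
        _ = (ι₁ a)⁻¹ * (ι₁ a * rep g * ι₁ b) * (ι₁ (cb g))⁻¹ := by rw [h2]
        _ = rep g * (ι₁ b * (ι₁ (cb g))⁻¹) := by group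
    have h3 := hycomp (rep g) _ _ h1
    rw [map_mul, map_mul, map_inv, map_inv] at h3
    show ι₂ (ca g) * y (rep g) * ι₂ (cb g) = ι₂ a * y (rep g) * ι₂ b
    calc ι₂ (ca g) * y (rep g) * ι₂ (cb g)
        = ι₂ a * ((ι₂ a)⁻¹ * ι₂ (ca g) * y (rep g)) * ι₂ (cb g) := by group
      _ = ι₂ a * (y (rep g) * (ι₂ b * (ι₂ (cb g))⁻¹)) * ι₂ (cb g) := by rw [h3]
      _ = ι₂ a * y (rep g) * ι₂ b := by group
  have hτ_equiv : ∀ g c d, τ (ι₁ c * g * ι₁ d) = ι₂ c * τ g * ι₂ d := by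
    intro g c d
    have hr : rep (ι₁ c * g * ι₁ d) = rep g := hrep_eq g c d
    have h1 : ι₁ c * g * ι₁ d = ι₁ (c * ca g) * rep (ι₁ c * g * ι₁ d) * ι₁ (cb g * d) := by
      rw [hr, map_mul, map_mul]
      calc ι₁ c * g * ι₁ d = ι₁ c * (ι₁ (ca g) * rep g * ι₁ (cb g)) * ι₁ d := by
            rw [← hcab g]
        _ = ι₁ c * ι₁ (ca g) * rep g * (ι₁ (cb g) * ι₁ d) := by group
    rw [hτ_eq _ _ _ h1, hr, map_mul, map_mul]
    show _ = ι₂ c * (ι₂ (ca g) * y (rep g) * ι₂ (cb g)) * ι₂ d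
    group
  have hτH : ∀ g, (g, τ g) ∈ H := by
    intro g
    have h1 := H.mul_mem (H.mul_mem (hS (ca g)) (hyH (rep g))) (hS (cb g))
    have h2 : ((ι₁ (ca g), ι₂ (ca g)) * (rep g, y (rep g)) * (ι₁ (cb g), ι₂ (cb g)) : G₁ × G₂) =
        (g, τ g) := by
      rw [Prod.mk_mul_mk, Prod.mk_mul_mk, ← hcab g]
    rw [h2] at h1
    exact h1
  have hτS : ∀ s, τ (ι₁ s) = ι₂ s := by
    intro s
    obtain ⟨a, b, t, hab, hτ⟩ : ∃ a b t, ι₁ s = ι₁ a * t * ι₁ b ∧
        τ (ι₁ s) = ι₂ a * y t * ι₂ b := ⟨_, _, _, hcab (ι₁ s), rfl⟩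
    have h1 : t = ι₁ (a⁻¹ * s * b⁻¹) := by
      rw [map_mul, map_mul, map_inv, map_inv, hab]
      group
    rw [hτ, hyspec t _ h1, ← map_mul, ← map_mul]
    congr 1
    group
  have hτl : ∀ s h, τ (ι₁ s * h) = ι₂ s * τ h := by
    intro s h
    have h1 := hτ_equiv h s 1
    rwa [map_one, map_one, mul_one, mul_one] at h1
  have hτr : ∀ h s, τ (h * ι₁ s) = τ h * ι₂ s := by
    intro h s
    have h1 := hτ_equiv h 1 s
    rwa [map_one, map_one, one_mul, one_mul] at h1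
  have hfH : ∀ g h, ∃ a : A, j a = τ g * τ h * (τ (g * h))⁻¹ := by
    intro g h
    have h1 := H.mul_mem (H.mul_mem (hτH g) (hτH h)) (H.inv_mem (hτH (g * h)))
    have h2 : ((g, τ g) * (h, τ h) * (g * h, τ (g * h))⁻¹ : G₁ × G₂) =
        (1, τ g * τ h * (τ (g * h))⁻¹) := by
      rw [Prod.inv_mk, Prod.mk_mul_mk, Prod.mk_mul_mk, mul_inv_cancel]
    rw [h2] at h1
    obtain ⟨a, ha⟩ := (hj _).mp h1
    exact ⟨a, ha⟩
  choose f hf using hfH
  have hκH : ∀ g (a : A), ∃ b : A, j b = τ g * j a * (τ g)⁻¹ := by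
    intro g a
    have ha : ((1 : G₁), j a) ∈ H := (hj _).mpr ⟨a, rfl⟩
    have h1 := H.mul_mem (H.mul_mem (hτH g) ha) (H.inv_mem (hτH g))
    have h2 : ((g, τ g) * (1, j a) * (g, τ g)⁻¹ : G₁ × G₂) = (1, τ g * j a * (τ g)⁻¹) := by
      rw [Prod.inv_mk, Prod.mk_mul_mk, Prod.mk_mul_mk, mul_one, mul_inv_cancel]
    rw [h2] at h1
    obtain ⟨b, hb⟩ := (hj _).mp h1
    exact ⟨b, hb⟩
  choose κ0 hκ0 using hκH
  let κ : G₁ → A →* A := fun g => MonoidHom.mk' (κ0 g) (by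
    intro a b
    apply hjinj
    rw [map_mul, hκ0, hκ0, hκ0, map_mul]
    group)
  have hκ : ∀ g a, j (κ g a) = τ g * j a * (τ g)⁻¹ := fun g a => hκ0 g a
  obtain ⟨d, hd1, hd2⟩ := coboundary_of_coprime ι₁.range κ f
    (by
      intro g h k
      apply hjinj
      rw [map_mul, map_mul, hf, hf, hκ, hf, hf, mul_assoc g h k]
      group)
    (by
      rintro g h _ ⟨s, rfl⟩
      apply hjinj
      rw [hf, hf, ← mul_assoc g h (ι₁ s), hτr h s, hτr (g * h) s]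
      group)
    N
    (by
      intro a
      apply hjinj
      rw [map_pow, map_one]
      exact hZexp _ ((hj _).mpr ⟨a, rfl⟩))
    hcop
  have hmul : ∀ g h, (j (d (g * h)))⁻¹ * τ (g * h) =
      (j (d g))⁻¹ * τ g * ((j (d h))⁻¹ * τ h) := by
    intro g h
    have key : τ g * τ h * (τ (g * h))⁻¹ =
        τ g * j (d h) * (τ g)⁻¹ * j (d g) * (j (d (g * h)))⁻¹ := by
      rw [← hf, hd1 g h, map_mul, map_mul, map_inv, hκ]
    have k2 : τ (g * h) = (τ g * j (d h) * (τ g)⁻¹ * j (d g) * (j (d (g * h)))⁻¹)⁻¹ *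
        (τ g * τ h) := by
      rw [← key]
      group
    generalize τ (g * h) = T at k2 ⊢
    generalize j (d (g * h)) = E at k2 ⊢
    rw [k2]
    group
  refine ⟨MonoidHom.mk' (fun g => (j (d g))⁻¹ * τ g) hmul, fun g => ?_, fun s => ?_⟩
  · have h1 : ((1 : G₁), (j (d g))⁻¹) ∈ H := (hj _).mpr ⟨(d g)⁻¹, map_inv j (d g)⟩
    have h2 := H.mul_mem h1 (hτH g)
    rw [Prod.mk_mul_mk, one_mul] at h2
    exact h2
  · have h1 : d (ι₁ s) = 1 := by
      apply hd2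
      intro h
      apply hjinj
      rw [hf, map_one, hτl s h, hτS]
      group
    show (j (d (ι₁ s)))⁻¹ * τ (ι₁ s) = ι₂ s
    rw [h1, map_one, inv_one, one_mul, hτS]

end Cfsg.Agent.Helper27
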