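import Cfsg.Agent.Helper27.ThreeTrans
import Cfsg.Agent.S5344

/-!
# 3-transposition groups: partners (helper27)
-/

set_option autoImplicit false

namespace Cfsg.Agent.Helper27.TT

open Cfsg Equiv

variable {G : Type*} [Group G] {D : Set G}

theorem exists_conj_eq (hD : IsThreeTranspositionClass D) {a b : G} (ha : a ∈ D) (hb : b ∈ D) :
    ∃ g : G, g * a * g⁻¹ = b := by
  obtain ⟨-, ⟨d₀, -, hd₀⟩, -⟩ := hD
  rw [hd₀] at ha hb
  have ha' : IsConj d₀ a := ha
  have hb' : IsConj d₀ b := hb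
  exact _root_.isConj_iff.mp (ha'.symm.trans hb')

/-- For `p'` in the class of `p` and `q` not commuting with `p`: the conjugate of `q` by `p p'` is a partner of `q`
different from `q`, and the products `p p'`, `q q'` multiply as in the four-group. -/
theorem partner (hD : IsThreeTranspositionSet D) (hconj : ∀ g : G, ∀ d ∈ D, g * d * g⁻¹ ∈ D)
    {p p' q : G} (hp : p ∈ D) (hp' : p' ∈ Vc D p) (hne : p ≠ p') (hq : q ∈ D) (hpq : ¬ Commute p q) :
    (p * p') * q * (p * p')⁻¹ ∈ Vc D q ∧ (p * p') * q * (p * p')⁻¹ ≠ q ∧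
    q * (p * p') * q⁻¹ = (p * p') * (q * ((p * p') * q * (p * p')⁻¹)) ∧
    (p * p') * (q * ((p * p') * q * (p * p')⁻¹)) = (q * ((p * p') * q * (p * p')⁻¹)) * (p * p') := by
  have hqp' : ¬ Commute q p' := fun h => hpq ((hp'.2 q hq).mp h.symm)
  obtain ⟨ψ, hinj, h0, h1, h2⟩ := Cfsg.Agent.S5344.result hD hp hq hp'.1 hne (Vc_commute hp hp').symm hpq hqp'
  refine ⟨conj_mem_Vc hD hconj hp hp' hq, ?_, ?_, ?_⟩
  · intro h
    have e : ψ ((swap 0 1 * swap 2 3) * swap 1 2 * (swap 0 1 * swap 2 3)⁻¹) = ψ (swap 1 2) := by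
      simp only [map_mul, map_inv, h0, h1, h2]
      exact h
    have e' := hinj e
    revert e'
    decide
  · have e : (swap 1 2 : Perm (Fin 4)) * (swap 0 1 * swap 2 3) * (swap 1 2)⁻¹ =
        (swap 0 1 * swap 2 3) * (swap 1 2 * ((swap 0 1 * swap 2 3) * swap 1 2 * (swap 0 1 * swap 2 3)⁻¹)) := by
      decide
    have e' := congrArg ψ e
    simp only [map_mul, map_inv, h0, h1, h2] at e'
    exact e'
  · have e : ((swap 0 1 : Perm (Fin 4)) * swap 2 3) *
        (swap 1 2 * ((swap 0 1 * swap 2 3) * swap 1 2 * (swap 0 1 * swap 2 3)⁻¹)) =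
        (swap 1 2 * ((swap 0 1 * swap 2 3) * swap 1 2 * (swap 0 1 * swap 2 3)⁻¹)) * (swap 0 1 * swap 2 3) := by
      decide
    have e' := congrArg ψ e
    simp only [map_mul, map_inv, h0, h1, h2] at e'
    exact e'

end Cfsg.Agent.Helper27.TT
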